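import Mathlib
import Cfsg.Agent.H598.MinNonC
import Cfsg.Agent.S4464
import Cfsg.Agent.S0144

/-!
# An abelian subgroup of index at most `(b!)²`
-/

set_option autoImplicit false

namespace Cfsg.Agent.H598.AbelianIndex

open Cfsg Cfsg.Agent Cfsg.Agent.Characters Cfsg.Agent.Characters.Core
open Cfsg.Agent.H597.Base Cfsg.Agent.H598.MaxDeg Cfsg.Agent.H598.MinNon
open scoped ComplexConjugate commutatorElement

universe u

/-- A number all of whose prime divisors are `2` or `3`. -/
theorem eq_two_pow_mul_three_pow {n : ℕ} (hn : n ≠ 0) (h : ∀ p, p.Prime → p ∣ n → p < 5) :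
    n = 2 ^ n.factorization 2 * 3 ^ n.factorization 3 := by
  have h1 : n.factorization.support ⊆ ({2, 3} : Finset ℕ) := by
    intro p hp
    rw [Nat.support_factorization] at hp
    have h2 := h p (Nat.prime_of_mem_primeFactors hp) (Nat.dvd_of_mem_primeFactors hp)
    have h3 := Nat.prime_of_mem_primeFactors hp
    interval_cases p
    · exact absurd h3 (by norm_num)
    · exact absurd h3 (by norm_num)
    · simp
    · simp
    · exact absurd h3 (by norm_num)
  conv_lhs => rw [← Nat.prod_factorization_pow_eq_self hn]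
  rw [Finsupp.prod_of_support_subset _ h1 _ (by intro i _; exact pow_zero i),
    Finset.prod_pair (by norm_num)]

variable {Q : Type u} [Group Q] [Finite Q]

theorem false_of_le_four (hQ : ∀ N : Subgroup Q, N.Normal → N ≠ ⊥ → commutator Q ≤ N)
    (hnab : ¬ ∀ x ∈ commutator Q, ∀ y ∈ commutator Q, x * y = y * x) (hb : Bd Q 4) : False := by
  apply not_solvable hQ hnab
  refine S0144.result 2 3 _ _ Nat.prime_two Nat.prime_three
    (eq_two_pow_mul_three_pow (Nat.card_pos (α := Q)).ne' fun p hp hd => ?_)
  by_contra hp5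
  push Not at hp5
  obtain ⟨P, hP1, hP2, hP3, hP4⟩ := S4464.result (G := Q) p hp
    (fun χ => lt_of_le_of_lt (hb χ χ.2) (by omega))
  apply hnab
  have h1 : P ≠ ⊥ := by
    rintro rfl
    rw [Subgroup.index_bot] at hP4
    exact hP4 hd
  have h2 := hQ P hP1 h1
  exact fun x hx y hy => hP2 x (h2 hx) y (h2 hy)

theorem factorial_ineq {b : ℕ} (hb : 5 ≤ b) :
    b ^ 4 * ((b / 2).factorial) ^ 2 ≤ (b.factorial) ^ 2 := by
  obtain ⟨c, rfl⟩ : ∃ c, b = c + 3 := ⟨b - 3, by omega⟩
  have h1 : (c + 3) / 2 ≤ c := by omega
  have h2 := Nat.factorial_le h1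
  have h3 : (c + 3).factorial = (c + 3) * ((c + 2) * ((c + 1) * c.factorial)) := by
    rw [Nat.factorial_succ, Nat.factorial_succ, Nat.factorial_succ]
  have h4 : (c + 3) ^ 2 * ((c + 3) / 2).factorial ≤ (c + 3).factorial := by
    rw [h3]
    have h5 : (c + 3) * c.factorial ≤ (c + 2) * ((c + 1) * c.factorial) := by
      rw [← mul_assoc]
      exact Nat.mul_le_mul_right _ (by nlinarith)
    calc (c + 3) ^ 2 * ((c + 3) / 2).factorial ≤ (c + 3) ^ 2 * c.factorial :=
          Nat.mul_le_mul_left _ h2
      _ = (c + 3) * ((c + 3) * c.factorial) := by ring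
      _ ≤ _ := Nat.mul_le_mul_left _ h5
  calc (c + 3) ^ 4 * (((c + 3) / 2).factorial) ^ 2
      = ((c + 3) ^ 2 * ((c + 3) / 2).factorial) ^ 2 := by ring
    _ ≤ _ := Nat.pow_le_pow_left h4 2

/-- The key step: a subgroup of small index with smaller degrees. -/
theorem exists_subgroup (G : Type u) [Group G] [Finite G] {b : ℕ} (h : Bd G b)
    (hG : ¬ ∀ x y : G, x * y = y * x) :
    ∃ (H : Subgroup G) (c : ℕ), c < b ∧ Bd H c ∧
      H.index * (c.factorial) ^ 2 ≤ (b.factorial) ^ 2 := by
  classical
  have := Fintype.ofFinite G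
  have hb0 := h.pos
  -- a maximal normal subgroup with nonabelian quotient
  obtain ⟨K, hK, hKmax⟩ : ∃ K : Subgroup G, (K.Normal ∧ ¬ commutator G ≤ K) ∧
      ∀ N : Subgroup G, N.Normal → K < N → commutator G ≤ N := by
    have hfin : {K : Subgroup G | K.Normal ∧ ¬ commutator G ≤ K}.Finite := Set.toFinite _
    obtain ⟨K, hK⟩ := hfin.exists_maximal ⟨⊥, inferInstance, fun h1 =>
      hG (comm_iff_commutator.2 (le_bot_iff.1 h1))⟩
    refine ⟨K, hK.1, fun N hN hKN => ?_⟩
    by_contra hc
    exact hKN.not_ge (hK.2 ⟨hN, hc⟩ hKN.le)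
  obtain ⟨hKn, hKc⟩ := hK
  have hπ := QuotientGroup.mk'_surjective K
  have hcomm : commutator (G ⧸ K) = (commutator G).map (QuotientGroup.mk' K) := by
    rw [commutator_def, commutator_def, Subgroup.map_commutator,
      Subgroup.map_top_of_surjective _ hπ]
  have hQ : ∀ N : Subgroup (G ⧸ K), N.Normal → N ≠ ⊥ → commutator (G ⧸ K) ≤ N := by
    intro N hN hne
    rw [hcomm, Subgroup.map_le_iff_le_comap]
    apply hKmax _ (hN.comap _)
    refine lt_of_le_of_ne ?_ ?_
    · intro k hk
      rw [Subgroup.mem_comap, QuotientGroup.mk'_apply, (QuotientGroup.eq_one_iff k).2 hk]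
      exact N.one_mem
    · intro h1
      apply hne
      rw [← Subgroup.map_comap_eq_self_of_surjective hπ N, ← h1, QuotientGroup.map_mk'_self]
  have hnc : ¬ ∀ x y : G ⧸ K, x * y = y * x := by
    intro h1
    rw [comm_iff_commutator, hcomm, Subgroup.map_eq_bot_iff, QuotientGroup.ker_mk'] at h1
    exact hKc h1
  have hQb : Bd (G ⧸ K) b := h.comp (QuotientGroup.mk' K) hπ
  -- a subgroup of index at most `b²` with smaller degrees is enough
  have fin : ∀ H : Subgroup G, H.index ≤ b ^ 2 → Bd H (b - 1) →
      ∃ (H : Subgroup G) (c : ℕ), c < b ∧ Bd H c ∧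
        H.index * (c.factorial) ^ 2 ≤ (b.factorial) ^ 2 := by
    intro H h1 h2
    refine ⟨H, b - 1, by omega, h2, ?_⟩
    calc H.index * ((b - 1).factorial) ^ 2 ≤ b ^ 2 * ((b - 1).factorial) ^ 2 :=
          Nat.mul_le_mul_right _ h1
      _ = (b * (b - 1).factorial) ^ 2 := by ring
      _ = _ := by rw [Nat.mul_factorial_pred hb0.ne']
  by_cases hZ : Subgroup.center (G ⧸ K) = ⊥
  · have hcne : commutator (G ⧸ K) ≠ ⊥ := fun h1 => hnc (comm_iff_commutator.2 h1)
    by_cases hab : ∀ x ∈ commutator (G ⧸ K), ∀ y ∈ commutator (G ⧸ K), x * y = y * x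
    · -- Frobenius type
      have h1 := index_le hQ hab hcne hZ hQb
      set R : Subgroup G := (commutator (G ⧸ K)).comap (QuotientGroup.mk' K) with hR
      have hRn : R.Normal := (inferInstance : (commutator (G ⧸ K)).Normal).comap _
      have hRi : R.index = (commutator (G ⧸ K)).index := Subgroup.index_comap_of_surjective _ hπ
      have hKR : K ≤ R := by
        intro k hk
        rw [hR, Subgroup.mem_comap, QuotientGroup.mk'_apply, (QuotientGroup.eq_one_iff k).2 hk]
        exact one_mem _
      obtain ⟨H, h2, h3⟩ := h.exists_of_chief R K (lt_of_le_of_ne hKR (by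
          intro h2
          apply hcne
          rw [← Subgroup.map_comap_eq_self_of_surjective hπ (commutator (G ⧸ K)), ← hR, ← h2,
            QuotientGroup.map_mk'_self])) (by
          intro M hM hKM hMR
          by_cases hMK : M = K
          · exact Or.inl hMK
          · right
            apply le_antisymm hMR
            have h2 := hKmax M hM (lt_of_le_of_ne hKM (Ne.symm hMK))
            rw [hR, hcomm]
            intro g hg
            rw [Subgroup.mem_comap] at hg
            obtain ⟨c, hc, hc'⟩ := hg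
            rw [QuotientGroup.mk'_apply, QuotientGroup.mk'_apply, QuotientGroup.eq] at hc'
            have h3 : g = c * (c⁻¹ * g) := by group
            rw [h3]
            exact M.mul_mem (h2 hc) (hKM hc')) (by
          rw [Subgroup.commutator_le]
          intro x hx y hy
          rw [← QuotientGroup.eq_one_iff, ← QuotientGroup.mk'_apply, map_commutatorElement,
            commutatorElement_eq_one_iff_mul_comm]
          exact hab _ hx _ hy) hnc (by rw [hRi]; exact h1)
      exact fin H h2 h3
    · -- nonsolvable case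
      have hnt : Nontrivial (G ⧸ K) := by
        by_contra h1
        rw [not_nontrivial_iff_subsingleton] at h1
        exact hnc fun x y => Subsingleton.elim _ _
      obtain ⟨x, hx1, hx⟩ := exists_small_class hQb
      have hcore := normalCore_eq_bot hQ hab hx1
      set H : Subgroup G := (Subgroup.centralizer ({x} : Set (G ⧸ K))).comap (QuotientGroup.mk' K)
        with hH
      have hHi : H.index ≤ b ^ 2 := by
        rw [hH, Subgroup.index_comap_of_surjective _ hπ]
        exact hx
      by_cases hHb : Bd H (b - 1)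
      · exact fin H hHi hHb
      obtain ⟨η, hη, hηb⟩ := h.exists_eq hHb
      have h1 := h.relIndex_core_le H hη hηb
      have hHK : H.normalCore ≤ K := by
        intro g hg
        have h2 : QuotientGroup.mk' K g ∈ (Subgroup.centralizer ({x} : Set (G ⧸ K))).normalCore := by
          intro y
          obtain ⟨y, rfl⟩ := hπ y
          have h3 : y * g * y⁻¹ ∈ H := hg y
          rw [hH, Subgroup.mem_comap] at h3
          rw [map_mul, map_mul, map_inv] at h3
          exact h3
        rw [hcore, Subgroup.mem_bot, QuotientGroup.mk'_apply, QuotientGroup.eq_one_iff] at h2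
        exact h2
      have hKi : K.index ≤ b ^ 4 := by
        have h2 : K.index ≤ H.normalCore.index := Subgroup.index_antitone hHK
        have h3 : H.normalCore.relIndex H * H.index = H.normalCore.index :=
          Subgroup.relIndex_mul_index H.normalCore_le
        have h4 := Nat.mul_le_mul h1 hHi
        rw [h3] at h4
        calc K.index ≤ _ := h2
          _ ≤ _ := h4
          _ = b ^ 4 := by ring
      have hb5 : 5 ≤ b := by
        by_contra hb
        exact false_of_le_four hQ hab (hQb.mono (by omega))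
      refine ⟨K, b / 2, by omega, h.half K hnc, ?_⟩
      exact (Nat.mul_le_mul_right _ hKi).trans (factorial_ineq hb5)
  · -- nontrivial centre
    obtain ⟨ζ, hζ, hζ2, hv, hi⟩ := exists_of_center hQ hnc hZ
    have hζ' : IsIrrCharacter G (ζ ∘ QuotientGroup.mk' K) := isIrr_comp _ hπ hζ
    have hdeg : charDegree (ζ ∘ QuotientGroup.mk' K) = charDegree ζ := by
      have h4 := apply_one hζ'
      rw [Function.comp_apply, map_one, apply_one hζ] at h4
      exact_mod_cast h4.symm
    have hHi : ((Subgroup.center (G ⧸ K)).comap (QuotientGroup.mk' K)).index = charDegree ζ ^ 2 := by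
      rw [Subgroup.index_comap_of_surjective _ hπ, hi]
    apply fin ((Subgroup.center (G ⧸ K)).comap (QuotientGroup.mk' K))
    · rw [hHi]
      exact Nat.pow_le_pow_left (hQb ζ hζ) 2
    · by_contra hc
      obtain ⟨η, hη, hηb⟩ := h.exists_eq hc
      have h1 := h.index_le_of_vanish _ hη hηb hζ' (fun g hg => hv _ hg)
      rw [hHi, hdeg] at h1
      nlinarith

/-- The main result. -/
theorem main (b : ℕ) : ∀ (G : Type u) [Group G] [Finite G], Bd G b →
    ∃ A : Subgroup G, (∀ x ∈ A, ∀ y ∈ A, x * y = y * x) ∧ A.index ≤ (b.factorial) ^ 2 := by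
  induction b using Nat.strong_induction_on with
  | _ b ih =>
    intro G _ _ h
    by_cases hG : ∀ x y : G, x * y = y * x
    · refine ⟨⊤, fun x _ y _ => hG x y, ?_⟩
      rw [Subgroup.index_top]
      exact Nat.one_le_pow _ _ (Nat.factorial_pos b)
    · obtain ⟨H, c, hc, hHc, hi⟩ := exists_subgroup G h hG
      obtain ⟨A, hA, hAi⟩ := ih c hc H hHc
      refine ⟨A.map H.subtype, ?_, ?_⟩
      · rintro _ ⟨x, hx, rfl⟩ _ ⟨y, hy, rfl⟩
        rw [← map_mul, ← map_mul, hA x hx y hy]
      · rw [Subgroup.index_map_subtype]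
        calc A.index * H.index ≤ (c.factorial) ^ 2 * H.index := Nat.mul_le_mul_right _ hAi
          _ = H.index * (c.factorial) ^ 2 := mul_comm _ _
          _ ≤ _ := hi

end Cfsg.Agent.H598.AbelianIndex
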