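import Mathlib
import Cfsg.Prelude.Def_DegreeGraph
import Cfsg.Agent.Characters.Core
import Cfsg.Agent.Characters.Clifford
import Cfsg.Agent.CharDeep.PowerDegrees
import Cfsg.Agent.CharDeep.CliffordCorr
import Cfsg.Agent.H597.Base
import Cfsg.Agent.H597.Degrees
import Cfsg.Agent.H681.DegBasic
import Cfsg.Agent.S0857

/-!
# The largest character degree

`Bd G b`: all irreducible characters of `G` have degree at most `b`.
-/

set_option autoImplicit false

namespace Cfsg.Agent.H598.MaxDeg

open Cfsg Cfsg.Agent Cfsg.Agent.Characters.Core Cfsg.Agent.Characters.Clifford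
open Cfsg.Agent.H597.Base
open scoped ComplexConjugate

universe u

/-- All irreducible characters have degree at most `b`. -/
def Bd (G : Type u) [Group G] (b : ℕ) : Prop :=
  ∀ χ : G → ℂ, IsIrrCharacter G χ → charDegree χ ≤ b

variable {G : Type u} [Group G]

theorem apply_one {χ : G → ℂ} (hχ : IsIrrCharacter G χ) : χ 1 = charDegree χ :=
  Blocks.Basic.irr_one_eq_charDegree hχ

theorem Bd.mono {b c : ℕ} (h : Bd G b) (hbc : b ≤ c) : Bd G c := fun χ hχ => (h χ hχ).trans hbc

theorem Bd.subgroup [Finite G] {b : ℕ} (h : Bd G b) (H : Subgroup G) : Bd H b := by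
  classical
  have := Fintype.ofFinite G
  intro θ hθ
  obtain ⟨χ, hχ, hc⟩ := CharDeep.PowerDegrees.exists_irr_over H hθ
  exact (degree_le_of_constituent (isCharacter_restrict H (isIrr_isCharacter hχ)) hθ
    (n := charDegree χ) (apply_one hχ) hc).trans (h χ hχ)

theorem Bd.comp {Q : Type*} [Group Q] (π : G →* Q) (hπ : Function.Surjective π) {b : ℕ}
    (h : Bd G b) : Bd Q b := by
  intro χ hχ
  have h1 := isIrr_comp π hπ hχ
  have h2 := h _ h1
  have h3 : charDegree (χ ∘ π) = charDegree χ := by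
    have h4 := apply_one h1
    have h5 := apply_one hχ
    rw [Function.comp_apply, map_one, h5] at h4
    exact_mod_cast h4.symm
  rwa [h3] at h2

/-- A character of maximal degree of a subgroup extends. -/
theorem Bd.exists_extension [Finite G] {b : ℕ} (h : Bd G b) (H : Subgroup G) {η : H → ℂ}
    (hη : IsIrrCharacter H η) (hb : charDegree η = b) :
    ∃ χ : G → ℂ, IsIrrCharacter G χ ∧ (fun x : H => χ x) = η ∧ charDegree χ = b := by
  classical
  have := Fintype.ofFinite G
  obtain ⟨χ, hχ, hc⟩ := CharDeep.PowerDegrees.exists_irr_over H hη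
  have h1 : b ≤ charDegree χ := by
    rw [← hb]
    exact degree_le_of_constituent (isCharacter_restrict H (isIrr_isCharacter hχ)) hη
      (n := charDegree χ) (apply_one hχ) hc
  have h2 := h χ hχ
  have h3 : charDegree χ = b := le_antisymm h2 h1
  refine ⟨χ, hχ, ?_, h3⟩
  apply eq_of_degree_eq (isCharacter_restrict H (isIrr_isCharacter hχ)) hη hc
  show χ 1 = η 1
  rw [apply_one hχ, apply_one hη, h3, hb]

/-- If `G ⧸ K` is not abelian it has a nonlinear character. -/
theorem exists_nonlinear [Finite G] (h : ¬ ∀ x y : G, x * y = y * x) :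
    ∃ β : G → ℂ, IsIrrCharacter G β ∧ 2 ≤ charDegree β := by
  by_contra hc
  push Not at hc
  apply h
  apply H597.Degrees.comm_of_forall_one
  intro χ hχ
  have h1 := hc χ hχ
  have h2 := Blocks.Basic.charDegree_pos hχ
  omega

theorem mul_le_of_restrict [Finite G] {b : ℕ} (h : Bd G b) (K : Subgroup G) [K.Normal]
    {χ : G → ℂ} (hχ : IsIrrCharacter G χ) (hχK : IsIrrCharacter K (fun k : K => χ k))
    {β : G ⧸ K → ℂ} (hβ : IsIrrCharacter (G ⧸ K) β) : charDegree β * charDegree χ ≤ b := by
  have h1 := H681.DegBasic.gallagher (QuotientGroup.mk' K) (QuotientGroup.mk'_surjective K) K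
    (fun k hk => (QuotientGroup.eq_one_iff k).2 hk) hχ hχK (apply_one hχ)
    (b := charDegree β) (H681.DegBasic.mem_charDegrees.2 ⟨β, hβ, apply_one hβ⟩)
  obtain ⟨ψ, hψ, h2⟩ := H681.DegBasic.mem_charDegrees.1 h1
  have h3 := h ψ hψ
  rw [apply_one hψ] at h2
  have h4 : charDegree ψ = charDegree β * charDegree χ := by exact_mod_cast h2
  omega

/-- If the normal subgroup `K` has a character of degree `b` then `G ⧸ K` is abelian. -/
theorem Bd.comm_of_eq [Finite G] {b : ℕ} (h : Bd G b) (K : Subgroup G) [K.Normal] {η : K → ℂ}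
    (hη : IsIrrCharacter K η) (hb : charDegree η = b) : ∀ x y : G ⧸ K, x * y = y * x := by
  by_contra hc
  obtain ⟨β, hβ, hβ2⟩ := exists_nonlinear hc
  obtain ⟨χ, hχ, hχK, hχb⟩ := h.exists_extension K hη hb
  have h1 := mul_le_of_restrict h K hχ (by rw [hχK]; exact hη) hβ
  have h2 : 0 < b := by rw [← hb]; exact Blocks.Basic.charDegree_pos hη
  rw [hχb] at h1
  nlinarith

/-- If `G ⧸ K` is not abelian then the degrees of `K` are at most `b / 2`. -/
theorem Bd.half [Finite G] {b : ℕ} (h : Bd G b) (K : Subgroup G) [K.Normal]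
    (hK : ¬ ∀ x y : G ⧸ K, x * y = y * x) : Bd K (b / 2) := by
  classical
  have := Fintype.ofFinite G
  intro θ hθ
  rw [Nat.le_div_iff_mul_le (by norm_num)]
  obtain ⟨χ, hχ, hc⟩ := CharDeep.PowerDegrees.exists_irr_over K hθ
  obtain ⟨c, hc1, hc2⟩ := H597.Degrees.degree_over K hχ hθ hc
  have h0 := Blocks.Basic.charDegree_pos hχ
  have h1 := h χ hχ
  rcases Nat.lt_or_ge c 2 with h2 | h2
  · have hc3 : c = 1 := by
      rcases Nat.eq_zero_or_pos c with h3 | h3
      · rw [h3, mul_zero] at hc1; omega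
      · omega
    have h4 : (fun n : K => χ n) = θ := by
      apply eq_of_degree_eq (isCharacter_restrict K (isIrr_isCharacter hχ)) hθ hc
      show χ 1 = θ 1
      rw [apply_one hχ, apply_one hθ, hc1, hc3, mul_one]
    obtain ⟨β, hβ, hβ2⟩ := exists_nonlinear hK
    have h5 := mul_le_of_restrict h K hχ (by rw [h4]; exact hθ) hβ
    rw [hc1, hc3, mul_one] at h5
    nlinarith
  · rw [hc1] at h1
    nlinarith

/-- Sums over `G` of functions supported on a subgroup. -/
theorem sum_eq_of_support' [Fintype G] {R : Type*} [AddCommMonoid R] (H : Subgroup G) [Fintype H]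
    {f : G → R} (h : ∀ g, g ∉ H → f g = 0) : ∑ g : G, f g = ∑ x : H, f x := by
  classical
  have h1 : ∑ x : H, f x = ∑ g ∈ Finset.univ.filter (fun g : G => g ∈ H), f g := by
    refine Finset.sum_bij' (fun x _ => (x : G)) (fun g hg => ⟨g, (Finset.mem_filter.1 hg).2⟩)
      ?_ ?_ ?_ ?_ ?_
    · intro x _
      exact Finset.mem_filter.2 ⟨Finset.mem_univ _, x.2⟩
    · intro g hg
      exact Finset.mem_univ _
    · intro x _
      rfl
    · intro g hg
      rfl
    · intro x _
      rfl
  rw [h1]
  refine (Finset.sum_subset (Finset.subset_univ _) ?_).symm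
  intro g _ hg
  apply h
  intro hgH
  exact hg (Finset.mem_filter.2 ⟨Finset.mem_univ _, hgH⟩)

/-- Sums over `G` of functions supported on a subgroup. -/
theorem sum_eq_of_support [Fintype G] (H : Subgroup G) [Fintype H] {f : G → ℂ}
    (h : ∀ g, g ∉ H → f g = 0) : ∑ g : G, f g = ∑ x : H, f x := sum_eq_of_support' H h

theorem card_mul_classInner [Fintype G] (φ ψ : G → ℂ) :
    (Nat.card G : ℂ) * classInner φ ψ = ∑ g : G, φ g * conj (ψ g) := by
  rw [classInner_def, ← mul_assoc, mul_inv_cancel₀ card_ne_zero_complex, one_mul]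

/-- inner products of functions supported on a subgroup -/
theorem classInner_of_support [Fintype G] (H : Subgroup G) [Fintype H] {φ ψ : G → ℂ}
    (h : ∀ g, g ∉ H → φ g = 0) :
    (H.index : ℂ) * classInner φ ψ = classInner (fun x : H => φ x) (fun x : H => ψ x) := by
  have h1 := card_mul_classInner φ ψ
  rw [sum_eq_of_support H (fun g hg => by rw [h g hg, zero_mul])] at h1
  have h2 := card_mul_classInner (fun x : H => φ x) (fun x : H => ψ x)
  have h3 : (Nat.card H : ℂ) ≠ 0 := card_ne_zero_complex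
  apply mul_left_cancel₀ h3
  rw [h2, ← h1, ← H.card_mul_index]
  push_cast
  ring

/-- If `H` has a character of the maximal degree and `ζ` vanishes off `H` then `|G:H| ≤ ζ(1)`. -/
theorem Bd.index_le_of_vanish [Finite G] {b : ℕ} (h : Bd G b) (H : Subgroup G) {η : H → ℂ}
    (hη : IsIrrCharacter H η) (hb : charDegree η = b) {ζ : G → ℂ} (hζ : IsIrrCharacter G ζ)
    (hv : ∀ g, g ∉ H → ζ g = 0) : H.index ≤ charDegree ζ := by
  classical
  have := Fintype.ofFinite G
  obtain ⟨χ, hχ, hχH, hχb⟩ := h.exists_extension H hη hb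
  have hprod : IsCharacter G (χ * ζ) := isCharacter_mul (isIrr_isCharacter hχ) (isIrr_isCharacter hζ)
  obtain ⟨ψ, hψ, hc⟩ := exists_constituent hprod
    (mul_ne_zero (isIrr_apply_one_ne_zero hχ) (isIrr_apply_one_ne_zero hζ))
  obtain ⟨m, hm⟩ := classInner_isNat hprod (isIrr_isCharacter hψ)
  have hm0 : m ≠ 0 := by rintro rfl; exact hc (by simpa using hm)
  have h1 := classInner_of_support H (φ := χ * ζ) (ψ := ψ) (fun g hg => by
    rw [Pi.mul_apply, hv g hg, mul_zero])
  rw [hm] at h1
  -- the multiplicity of `η` in `ψ_H * conj ζ_H`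
  have h2 : classInner (fun x : H => (ψ * fun g => conj (ζ g)) x) η = ((H.index * m : ℕ) : ℂ) := by
    have h3 : classInner (fun x : H => (ψ * fun g => conj (ζ g)) x) η
        = conj (classInner (fun x : H => (χ * ζ) x) (fun x : H => ψ x)) := by
      rw [classInner_def, classInner_def, map_mul, map_sum, map_inv₀, Complex.conj_natCast]
      congr 1
      refine Finset.sum_congr rfl fun x _ => ?_
      rw [← hχH]
      simp only [Pi.mul_apply, map_mul, Complex.conj_conj]
      ring
    rw [h3, ← h1, ← Nat.cast_mul, Complex.conj_natCast]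
  have h4 : IsCharacter H (fun x : H => (ψ * fun g => conj (ζ g)) x) :=
    isCharacter_restrict H (isCharacter_mul (isIrr_isCharacter hψ)
      (isCharacter_conj (isIrr_isCharacter hζ)))
  have h5 := mult_mul_degree_le h4 hη (n := charDegree ψ * charDegree ζ) (m := H.index * m) (by
    show ψ 1 * conj (ζ 1) = _
    rw [apply_one hψ, apply_one hζ, Complex.conj_natCast]
    push_cast
    ring) h2
  have h6 := h ψ hψ
  have hb0 : 0 < b := by rw [← hb]; exact Blocks.Basic.charDegree_pos hη
  rw [hb] at h5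
  have h7 : H.index * m * b ≤ b * charDegree ζ := h5.trans (Nat.mul_le_mul_right _ h6)
  have h8 : H.index * m ≤ charDegree ζ := by
    rw [mul_comm b] at h7
    exact Nat.le_of_mul_le_mul_right h7 hb0
  exact le_trans (Nat.le_mul_of_pos_right _ (Nat.pos_of_ne_zero hm0)) h8

/-- A character of maximal degree of a subgroup vanishes off the core. -/
theorem Bd.vanish_off_core [Finite G] {b : ℕ} (h : Bd G b) (H : Subgroup G) {ψ : G → ℂ}
    (hψ : IsIrrCharacter G ψ) (hψH : IsIrrCharacter H (fun x : H => ψ x))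
    (hb : charDegree ψ = b) {x : G} (hx : x ∈ H) (hx' : x ∉ H.normalCore) : ψ x = 0 := by
  classical
  have := Fintype.ofFinite G
  have := finite_irr (G := G)
  have := Fintype.ofFinite (IrrCharacter G)
  set η : H → ℂ := fun x : H => ψ x with hη
  obtain ⟨c, hc1, hc2⟩ := CharDeep.CliffordCorr.exists_nat_coeffs_indFun H (isIrr_isCharacter hψH)
  have hηb : charDegree η = b := by
    have h1 := apply_one hψH
    have h2 : η 1 = ψ 1 := rfl
    rw [h2, apply_one hψ] at h1
    rw [← hb]
    exact_mod_cast h1.symm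
  have hres : ∀ τ : IrrCharacter G, (c τ : ℂ) ≠ 0 → ∀ z : G, z ∈ H → (τ : G → ℂ) z = ψ z := by
    intro τ hτ z hz
    have h1 : classInner (fun y : H => (τ : G → ℂ) y) η ≠ 0 := by
      rw [← classInner_conj_symm, hc2 τ]
      simpa using hτ
    have h2 : b ≤ charDegree (τ : G → ℂ) := by
      rw [← hηb]
      exact degree_le_of_constituent (isCharacter_restrict H (isIrr_isCharacter τ.2)) hψH
        (n := charDegree (τ : G → ℂ)) (apply_one τ.2) h1
    have h3 : charDegree (τ : G → ℂ) = b := le_antisymm (h _ τ.2) h2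
    have h4 : (fun y : H => (τ : G → ℂ) y) = η := by
      apply eq_of_degree_eq (isCharacter_restrict H (isIrr_isCharacter τ.2)) hψH h1
      show (τ : G → ℂ) 1 = ψ 1
      rw [apply_one τ.2, apply_one hψ, h3, hb]
    exact congrFun h4 ⟨z, hz⟩
  have hval : ∀ z ∈ H, indFun H η z = (∑ τ : IrrCharacter G, (c τ : ℂ)) * ψ z := by
    intro z hz
    rw [hc1, Finset.sum_apply, Finset.sum_mul]
    refine Finset.sum_congr rfl fun τ _ => ?_
    rw [Pi.smul_apply, smul_eq_mul]
    by_cases h0 : (c τ : ℂ) = 0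
    · rw [h0, zero_mul, zero_mul]
    · rw [hres τ h0 z hz]
  have hind : ∀ z : G, (Nat.card H : ℂ) * indFun H η z
      = ((Finset.univ.filter fun y : G => y⁻¹ * z * y ∈ H).card : ℂ) * ψ z := by
    intro z
    rw [indFun_apply, ← mul_assoc, mul_inv_cancel₀ card_ne_zero_complex, one_mul,
      Finset.card_filter]
    push_cast
    rw [Finset.sum_mul]
    refine Finset.sum_congr rfl fun y _ => ?_
    split_ifs with h1
    · rw [extendByZero_of_mem H η h1, one_mul]
      show ψ (y⁻¹ * z * y) = ψ z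
      have h2 := isIrr_isClassFunction hψ z y⁻¹
      rwa [inv_inv] at h2
    · rw [extendByZero_of_notMem H η h1, zero_mul]
  by_contra hne
  apply hx'
  have h1 := hind x
  have h2 := hind 1
  rw [hval x hx] at h1
  rw [hval 1 H.one_mem] at h2
  have h3 : (Finset.univ.filter fun y : G => y⁻¹ * 1 * y ∈ H).card = Fintype.card G := by
    rw [Finset.filter_true_of_mem, Finset.card_univ]
    intro y _
    rw [mul_one, inv_mul_cancel]
    exact H.one_mem
  rw [h3] at h2
  have h1' : (Nat.card H : ℂ) * (∑ τ : IrrCharacter G, (c τ : ℂ))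
      = ((Finset.univ.filter fun y : G => y⁻¹ * x * y ∈ H).card : ℂ) :=
    mul_right_cancel₀ hne (by rw [← h1]; ring)
  have h2' : (Nat.card H : ℂ) * (∑ τ : IrrCharacter G, (c τ : ℂ)) = (Fintype.card G : ℂ) :=
    mul_right_cancel₀ (isIrr_apply_one_ne_zero hψ) (by rw [← h2]; ring)
  have h4 : (Finset.univ.filter fun y : G => y⁻¹ * x * y ∈ H).card = Fintype.card G := by
    have h5 := h1'.symm.trans h2'
    exact_mod_cast h5
  rw [← Finset.card_univ] at h4
  have h5 := Finset.eq_of_subset_of_card_le (Finset.filter_subset _ _) h4.ge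
  intro g
  have h6 : g⁻¹ ∈ Finset.univ.filter fun y : G => y⁻¹ * x * y ∈ H := by
    rw [h5]; exact Finset.mem_univ _
  have h7 := (Finset.mem_filter.1 h6).2
  rwa [inv_inv] at h7

/-- The sum of the squared absolute values. -/
theorem card_eq_sum_normSq [Fintype G] {ψ : G → ℂ} (hψ : IsIrrCharacter G ψ) :
    (Nat.card G : ℝ) = ∑ g : G, Complex.normSq (ψ g) := by
  have h1 := card_mul_classInner ψ ψ
  rw [classInner_irr_self hψ, mul_one] at h1
  have h2 : ∀ g : G, ψ g * conj (ψ g) = ((Complex.normSq (ψ g) : ℝ) : ℂ) :=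
    fun g => Complex.mul_conj _
  simp only [h2] at h1
  exact_mod_cast h1

/-- The sum of the squared absolute values, for a character vanishing off a subgroup. -/
theorem card_eq_sum_normSq_of_vanish [Fintype G] {ψ : G → ℂ} (hψ : IsIrrCharacter G ψ)
    (H : Subgroup G) [Fintype H] (hv : ∀ g, g ∉ H → ψ g = 0) :
    (Nat.card G : ℝ) = ∑ g : H, Complex.normSq (ψ g) := by
  rw [card_eq_sum_normSq hψ]
  exact sum_eq_of_support' H fun g hg => by rw [hv g hg, map_zero]

theorem normSq_le [Finite G] {ψ : G → ℂ} (hψ : IsIrrCharacter G ψ) (g : G) :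
    Complex.normSq (ψ g) ≤ (charDegree ψ : ℝ) ^ 2 := by
  obtain ⟨n, ρ, rfl, h1, h2⟩ := exists_rep (isIrr_isCharacter hψ)
  have h := Cfsg.Agent.S0137.result ρ g
  simp only [Module.finrank_fintype_fun_eq_card, Fintype.card_fin] at h
  rw [apply_one hψ] at h1
  have h3 : charDegree ρ.character = n := by exact_mod_cast h1
  rw [h3, Complex.normSq_eq_norm_sq]
  exact pow_le_pow_left₀ (norm_nonneg _) h 2

end Cfsg.Agent.H598.MaxDeg
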