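import Mathlib
import Cfsg.Agent.H598.MaxDeg2
import Cfsg.Agent.CharactersDeep.Extraspecial
import Cfsg.Agent.CharactersDeep.FeitLinear
import Cfsg.Agent.Characters.CCBasic

/-!
# Nonabelian groups all of whose proper quotients are abelian
-/

set_option autoImplicit false

namespace Cfsg.Agent.H598.MinNon

open Cfsg Cfsg.Agent Cfsg.Agent.Characters Cfsg.Agent.Characters.Core
open Cfsg.Agent.H597.Base Cfsg.Agent.H598.MaxDeg
open scoped ComplexConjugate commutatorElement

universe u

variable {Q : Type u} [Group Q] [Finite Q]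

omit [Finite Q] in
theorem comm_iff_commutator : (∀ x y : Q, x * y = y * x) ↔ commutator Q = ⊥ := by
  constructor
  · intro h
    rw [eq_bot_iff, commutator_def, Subgroup.commutator_le]
    intro x _ y _
    rw [Subgroup.mem_bot, commutatorElement_def, h x y]
    group
  · intro h x y
    have h1 : ⁅x, y⁆ ∈ commutator Q :=
      Subgroup.commutator_mem_commutator (Subgroup.mem_top x) (Subgroup.mem_top y)
    rw [h, Subgroup.mem_bot, commutatorElement_eq_one_iff_mul_comm] at h1
    exact h1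

omit [Finite Q] in
theorem mul_inv_mem_commutator (x y : Q) : x * y * x⁻¹ * y⁻¹ ∈ commutator Q := by
  have h1 : ⁅x, y⁆ ∈ commutator Q :=
    Subgroup.commutator_mem_commutator (Subgroup.mem_top x) (Subgroup.mem_top y)
  rwa [commutatorElement_def] at h1

/-- Case of a nontrivial centre: a nonlinear character which vanishes off the centre and has degree
`|Q : Z(Q)|^(1/2)`. -/
theorem exists_of_center (hQ : ∀ N : Subgroup Q, N.Normal → N ≠ ⊥ → commutator Q ≤ N)
    (hnc : ¬ ∀ x y : Q, x * y = y * x) (hZ : Subgroup.center Q ≠ ⊥) :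
    ∃ ζ : Q → ℂ, IsIrrCharacter Q ζ ∧ 2 ≤ charDegree ζ ∧
      (∀ g, g ∉ Subgroup.center Q → ζ g = 0) ∧ (Subgroup.center Q).index = charDegree ζ ^ 2 := by
  classical
  have := Fintype.ofFinite Q
  have hcl := hQ _ inferInstance hZ
  obtain ⟨ζ, hζ, h2⟩ := exists_nonlinear hnc
  have hker : ∀ g, ζ g = ζ 1 → g = 1 := by
    intro g hg
    by_contra hne
    have h3 : ker (isIrr_isCharacter hζ) ≠ ⊥ := by
      intro h4
      have : g ∈ ker (isIrr_isCharacter hζ) := hg
      rw [h4, Subgroup.mem_bot] at this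
      exact hne this
    have h4 := hQ _ inferInstance h3
    have h5 := CharactersDeep.FeitLinear.apply_one_eq_one (commutator Q) mul_inv_mem_commutator hζ
      (fun k hk => h4 hk)
    rw [apply_one hζ] at h5
    have h6 : charDegree ζ = 1 := by exact_mod_cast h5
    omega
  obtain ⟨c, hc, -⟩ := CharactersDeep.Extraspecial.exists_central_hom hζ
  have hc1 : ∀ z : Subgroup.center Q, z ≠ 1 → (c z : ℂ) ≠ 1 := by
    intro z hz h3
    apply hz
    apply Subtype.ext
    apply hker
    have h4 := hc 1 z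
    rw [one_mul, h3, mul_one] at h4
    exact h4
  have hv : ∀ g, g ∉ Subgroup.center Q → ζ g = 0 := fun g hg =>
    CharactersDeep.Extraspecial.eq_zero_of_notMem_center hcl (isIrr_isClassFunction hζ)
      (fun z => (c z : ℂ)) hc1 hc hg
  refine ⟨ζ, hζ, h2, hv, ?_⟩
  have h3 := card_eq_sum_normSq_of_vanish hζ (Subgroup.center Q) hv
  have h4 : ∀ z : Subgroup.center Q, Complex.normSq (ζ z) = (charDegree ζ : ℝ) ^ 2 := by
    intro z
    have h5 := hc 1 z
    rw [one_mul] at h5
    rw [h5, map_mul, apply_one hζ, Complex.normSq_natCast, Complex.normSq_eq_norm_sq,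
      Linear.norm_hom_apply c z]
    ring
  rw [Finset.sum_congr rfl fun z _ => h4 z, Finset.sum_const, Finset.card_univ, nsmul_eq_mul,
    ← Nat.card_eq_fintype_card, ← (Subgroup.center Q).card_mul_index] at h3
  have h5 : Nat.card (Subgroup.center Q) * (Subgroup.center Q).index
      = Nat.card (Subgroup.center Q) * charDegree ζ ^ 2 := by exact_mod_cast h3
  exact Nat.eq_of_mul_eq_mul_left Nat.card_pos h5

omit [Finite Q] in
/-- If `m` commutes with `y` and with `y a⁻¹` then with `a`. -/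
theorem commute_aux {m y a : Q} (h : m * y = y * m) (h' : m * (y * a⁻¹) = (y * a⁻¹) * m) :
    m * a = a * m := by
  have h1 : Commute m y := h
  have h2 : Commute m (y * a⁻¹) := h'
  have h3 : Commute m ((y * a⁻¹)⁻¹ * y) := (h2.inv_right).mul_right h1
  have h4 : (y * a⁻¹)⁻¹ * y = a := by group
  rwa [h4] at h3

section metab

variable (hQ : ∀ N : Subgroup Q, N.Normal → N ≠ ⊥ → commutator Q ≤ N)
  (hab : ∀ x ∈ commutator Q, ∀ y ∈ commutator Q, x * y = y * x)

omit [Finite Q] in
include hQ hab in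
/-- An element outside `C(Q')` centralizes no nontrivial element of `Q'`. -/
theorem eq_one_of_commute {a : Q} (ha : a ∉ Subgroup.centralizer (commutator Q : Set Q)) {v : Q}
    (hv : v ∈ commutator Q) (hva : v * a = a * v) : v = 1 := by
  let M : Subgroup Q := commutator Q ⊓ Subgroup.centralizer ({a} : Set Q)
  have hM : M.Normal := by
    constructor
    intro w hw g
    obtain ⟨hw1, hw2⟩ := Subgroup.mem_inf.1 hw
    rw [Subgroup.mem_centralizer_singleton_iff] at hw2
    have h1 : g * w * g⁻¹ ∈ commutator Q := (inferInstance : (commutator Q).Normal).conj_mem w hw1 g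
    refine Subgroup.mem_inf.2 ⟨h1, ?_⟩
    rw [Subgroup.mem_centralizer_singleton_iff]
    have h2 := hab _ h1 _ (mul_inv_mem_commutator g a)
    -- `g a g⁻¹ = (g a g⁻¹ a⁻¹) a`
    have h3 : g * w * g⁻¹ * (g * a * g⁻¹) = (g * a * g⁻¹) * (g * w * g⁻¹) := by
      calc g * w * g⁻¹ * (g * a * g⁻¹) = g * (w * a) * g⁻¹ := by group
        _ = g * (a * w) * g⁻¹ := by rw [hw2]
        _ = _ := by group
    exact commute_aux h3 h2
  by_contra hne
  apply ha
  have h1 : M ≠ ⊥ := by
    intro h2
    have h3 : v ∈ M := Subgroup.mem_inf.2 ⟨hv, Subgroup.mem_centralizer_singleton_iff.2 hva⟩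
    rw [h2, Subgroup.mem_bot] at h3
    exact hne h3
  have h2 := hQ M hM h1
  rw [Subgroup.mem_centralizer_iff]
  intro w hw
  exact Subgroup.mem_centralizer_singleton_iff.1 (Subgroup.mem_inf.1 (h2 hw)).2

include hQ hab in
/-- For `a ∉ C(Q')`, every element of `Q'` is a commutator `v a v⁻¹ a⁻¹` with `v ∈ Q'`. -/
theorem exists_comm_eq {a : Q} (ha : a ∉ Subgroup.centralizer (commutator Q : Set Q)) {u : Q}
    (hu : u ∈ commutator Q) : ∃ v ∈ commutator Q, v * a * v⁻¹ * a⁻¹ = u := by
  let φ : commutator Q → commutator Q := fun v => ⟨v * a * v⁻¹ * a⁻¹, mul_inv_mem_commutator _ _⟩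
  have hφ : Function.Injective φ := by
    intro v w h
    have h1 : (v : Q) * a * (v : Q)⁻¹ * a⁻¹ = w * a * (w : Q)⁻¹ * a⁻¹ := congrArg Subtype.val h
    have h2 : ((w : Q)⁻¹ * v) * a = a * ((w : Q)⁻¹ * v) := by
      have h3 := mul_right_cancel h1
      calc ((w : Q)⁻¹ * v) * a = (w : Q)⁻¹ * (v * a * (v : Q)⁻¹) * v := by group
        _ = (w : Q)⁻¹ * (w * a * (w : Q)⁻¹) * v := by rw [h3]
        _ = _ := by group
    have h3 := eq_one_of_commute hQ hab ha
      ((commutator Q).mul_mem ((commutator Q).inv_mem w.2) v.2) h2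
    exact Subtype.ext (inv_mul_eq_one.1 h3).symm
  obtain ⟨v, hv⟩ := (Finite.injective_iff_surjective.1 hφ) ⟨u, hu⟩
  exact ⟨v, v.2, congrArg Subtype.val hv⟩

include hQ hab in
/-- `C(Q') = Q'` if the centre is trivial. -/
theorem centralizer_le (hnc : commutator Q ≠ ⊥) (hZ : Subgroup.center Q = ⊥) :
    Subgroup.centralizer (commutator Q : Set Q) ≤ commutator Q := by
  -- an element outside the centralizer
  obtain ⟨a, ha⟩ : ∃ a, a ∉ Subgroup.centralizer (commutator Q : Set Q) := by
    by_contra hc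
    push Not at hc
    apply hnc
    rw [eq_bot_iff, ← hZ]
    intro v hv
    rw [Subgroup.mem_center_iff]
    intro g
    exact (Subgroup.mem_centralizer_iff.1 (hc g) v hv).symm
  intro c hc
  obtain ⟨v, hv, hvc⟩ := exists_comm_eq hQ hab ha (mul_inv_mem_commutator c a)
  have hvcent : v ∈ Subgroup.centralizer (commutator Q : Set Q) :=
    Subgroup.mem_centralizer_iff.2 fun w hw => hab w hw v hv
  set d : Q := v⁻¹ * c with hd
  have hdc : d ∈ Subgroup.centralizer (commutator Q : Set Q) :=
    Subgroup.mul_mem _ (Subgroup.inv_mem _ hvcent) hc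
  have hda : d * a = a * d := by
    have h3 := mul_right_cancel hvc
    calc d * a = v⁻¹ * (c * a * c⁻¹) * c := by rw [hd]; group
      _ = v⁻¹ * (v * a * v⁻¹) * c := by rw [h3]
      _ = a * d := by rw [hd]; group
  have hdZ : d ∈ Subgroup.center Q := by
    rw [Subgroup.mem_center_iff]
    intro g
    -- `z = g d g⁻¹ d⁻¹` is trivial
    have hz := mul_inv_mem_commutator g d
    have h1 : g * d * g⁻¹ ∈ Subgroup.centralizer (commutator Q : Set Q) :=
      (inferInstance : (Subgroup.centralizer (commutator Q : Set Q)).Normal).conj_mem d hdc g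
    have h2 : (g * d * g⁻¹) * a = a * (g * d * g⁻¹) := by
      have h3 : (g * d * g⁻¹) * (g * a * g⁻¹) = (g * a * g⁻¹) * (g * d * g⁻¹) := by
        calc (g * d * g⁻¹) * (g * a * g⁻¹) = g * (d * a) * g⁻¹ := by group
          _ = g * (a * d) * g⁻¹ := by rw [hda]
          _ = _ := by group
      exact commute_aux h3 (Subgroup.mem_centralizer_iff.1 h1 _ (mul_inv_mem_commutator g a)).symm
    have h6 : (g * d * g⁻¹ * d⁻¹) * a = a * (g * d * g⁻¹ * d⁻¹) := by
      have h7 : d⁻¹ * a = a * d⁻¹ := by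
        calc d⁻¹ * a = d⁻¹ * (a * d) * d⁻¹ := by group
          _ = d⁻¹ * (d * a) * d⁻¹ := by rw [hda]
          _ = a * d⁻¹ := by group
      calc (g * d * g⁻¹ * d⁻¹) * a = (g * d * g⁻¹) * (d⁻¹ * a) := by group
        _ = (g * d * g⁻¹) * (a * d⁻¹) := by rw [h7]
        _ = ((g * d * g⁻¹) * a) * d⁻¹ := by group
        _ = (a * (g * d * g⁻¹)) * d⁻¹ := by rw [h2]
        _ = _ := by group
    have h7 := eq_one_of_commute hQ hab ha hz h6
    calc g * d = (g * d * g⁻¹ * d⁻¹) * d * g := by group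
      _ = d * g := by rw [h7, one_mul]
  rw [hZ, Subgroup.mem_bot] at hdZ
  have : c = v := by
    rw [hd] at hdZ
    exact (inv_mul_eq_one.1 hdZ).symm
  rw [this]
  exact hv

include hQ hab in
/-- If the centre is trivial and `Q'` is abelian, `|Q : Q'|` is a character degree. -/
theorem index_le (hnc : commutator Q ≠ ⊥) (hZ : Subgroup.center Q = ⊥) {b : ℕ} (hb : Bd Q b) :
    (commutator Q).index ≤ b := by
  classical
  have := Fintype.ofFinite Q
  have hC := centralizer_le hQ hab hnc hZ
  obtain ⟨w, hw1⟩ := (Subgroup.ne_bot_iff_exists_ne_one (H := commutator Q)).1 hnc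
  obtain ⟨l, hl, hlw⟩ : ∃ l : commutator Q → ℂ, IsIrrCharacter (commutator Q) l ∧ l w ≠ l 1 := by
    by_contra hc
    push Not at hc
    exact hw1 (eq_one_of_forall hc)
  have hl1 : l 1 = 1 := CCBasic.irr_apply_one_of_comm (A := commutator Q)
    (fun x y => Subtype.ext (hab x x.2 y y.2)) hl
  obtain ⟨f, hf⟩ := Linear.exists_hom_of_isIrrCharacter hl hl1
  have h1 := H681.DegBasic.induced_degree (commutator Q) hl (d := 1) (by rw [hl1]; simp) (by
    intro a ha
    by_contra hna
    have ha' : a ∉ Subgroup.centralizer (commutator Q : Set Q) := fun h => hna (hC h)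
    apply hlw
    obtain ⟨v, hv, hvw⟩ := exists_comm_eq hQ hab ha' w.2
    have h2 := ha ⟨v, hv⟩
    rw [hf] at h2 hlw ⊢
    -- `w = v * (a v a⁻¹)⁻¹`
    have hmem : a * v * a⁻¹ ∈ commutator Q := (inferInstance : (commutator Q).Normal).conj_mem v hv a
    have h3 : w = (⟨v, hv⟩ : commutator Q) * (⟨a * v * a⁻¹, hmem⟩ : commutator Q)⁻¹ := by
      apply Subtype.ext
      rw [← hvw]
      push_cast
      group
    have h4 : f ⟨a * v * a⁻¹, hmem⟩ = f ⟨v, hv⟩ := by
      ext
      exact h2
    show ((f w : ℂˣ) : ℂ) = ((f 1 : ℂˣ) : ℂ)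
    rw [h3, map_mul, map_inv, h4, mul_inv_cancel, map_one])
  rw [mul_one] at h1
  obtain ⟨χ, hχ, h2⟩ := H681.DegBasic.mem_charDegrees.1 h1
  rw [apply_one hχ] at h2
  have h3 : charDegree χ = (commutator Q).index := by exact_mod_cast h2
  rw [← h3]
  exact hb χ hχ

end metab

end Cfsg.Agent.H598.MinNon
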