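import Mathlib
import Cfsg.Agent.H598.PElem
import Cfsg.Agent.H598.MaxDeg2
import Cfsg.Agent.H686.CharKit
import Cfsg.Agent.Characters.CCBasic
import Cfsg.Agent.CharactersDeep.NormalInd
import Cfsg.Agent.OddOrderCharacters.ClassSum
import Cfsg.Agent.S0854
import Cfsg.Agent.S0857

/-!
# Winter's theorem on nonnormal Sylow subgroups of solvable linear groups
-/

set_option autoImplicit false

namespace Cfsg.Agent.H598.Winter

open Cfsg Cfsg.Agent Cfsg.Agent.Characters Cfsg.Agent.Characters.Core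
open Cfsg.Agent.H597.Base Cfsg.Agent.H598.MaxDeg Cfsg.Agent.H598.PElem
open Subgroup

universe u

variable {G : Type u} [Group G]

/-- If `g` is in the kernel of every constituent it is in the kernel. -/
theorem apply_eq_of_constituents [Fintype G] {ψ : G → ℂ} (hψ : IsCharacter G ψ) {g : G}
    (h : ∀ θ : G → ℂ, IsIrrCharacter G θ → classInner ψ θ ≠ 0 → θ g = θ 1) : ψ g = ψ 1 := by
  classical
  have := finite_irr (G := G)
  have := Fintype.ofFinite (IrrCharacter G)
  obtain ⟨c, hc, hc'⟩ := CharDeep.CliffordCorr.exists_nat_coeffs hψ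
  rw [apply_eq_sum hc g, apply_eq_sum hc 1]
  refine Finset.sum_congr rfl fun η _ => ?_
  by_cases h0 : (c η : ℂ) = 0
  · rw [h0, zero_mul, zero_mul]
  · rw [h η η.2 (by rw [hc' η]; exact h0)]

theorem ker_pow [Finite G] {χ : G → ℂ} (hχ : IsCharacter G χ) {g : G} (h : χ g = χ 1) (n : ℕ) :
    χ (g ^ n) = χ 1 := (ker hχ).pow_mem (show g ∈ ker hχ from h) n

/-- The induction hypothesis. -/
def IH (p m : ℕ) : Prop := ∀ (H : Type u) [Group H] [Finite H], Nat.card H < m →
  Group.IsSolvable H → ∀ χ : H → ℂ, IsIrrCharacter H χ → ¬ W p (charDegree χ) →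
    ∀ x y : H, PE p x → PE p y → ∃ k : ℕ, χ ((x * y) ^ p ^ k) = χ 1

/-- A minimal counterexample. -/
structure Ctx (p : ℕ) (G : Type u) [Group G] [Finite G] (χ : G → ℂ) : Prop where
  prime : p.Prime
  solv : Group.IsSolvable G
  irr : IsIrrCharacter G χ
  faith : ∀ g, χ g = χ 1 → g = 1
  noW : ¬ W p (charDegree χ)
  ih : IH.{u} p (Nat.card G)
  ncl : ¬ Cl p G

namespace Ctx

variable [Finite G] {p : ℕ} {χ : G → ℂ}

theorem constituent_noW (c : Ctx p G χ) [Fintype G] (N : Subgroup G) [N.Normal] [Fintype N]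
    {θ : N → ℂ} (hθ : IsIrrCharacter N θ) (h : classInner (fun n : N => χ n) θ ≠ 0) :
    ¬ W p (charDegree θ) := by
  obtain ⟨d, hd, -⟩ := H597.Degrees.degree_over N c.irr hθ h
  exact fun hW => c.noW (hW.mono (by rw [hd]; exact dvd_mul_right _ _))

/-- Products of `p`-elements in a proper normal subgroup. -/
theorem closed (c : Ctx p G χ) (N : Subgroup G) [N.Normal] (hN : N ≠ ⊤) {x y : G} (hx : x ∈ N)
    (hy : y ∈ N) (hxp : PE p x) (hyp : PE p y) : PE p (x * y) := by
  classical
  have := Fintype.ofFinite G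
  have := finite_irr (G := N)
  have := Fintype.ofFinite (IrrCharacter N)
  have hs := c.solv
  have hlt : Nat.card N < Nat.card G := by
    apply lt_of_le_of_ne (Nat.card_le_card_of_injective _ N.subtype_injective)
    intro h
    exact hN (Subgroup.eq_top_of_card_eq N h)
  have key : ∀ θ : IrrCharacter N, ∃ k : ℕ, classInner (fun n : N => χ n) (θ : N → ℂ) ≠ 0 →
      (θ : N → ℂ) (((⟨x, hx⟩ : N) * ⟨y, hy⟩) ^ p ^ k) = (θ : N → ℂ) 1 := by
    intro θ
    by_cases h0 : classInner (fun n : N => χ n) (θ : N → ℂ) = 0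
    · exact ⟨0, fun h => absurd h0 h⟩
    · obtain ⟨k, hk⟩ := c.ih N hlt inferInstance θ θ.2 (c.constituent_noW N θ.2 h0) ⟨x, hx⟩ ⟨y, hy⟩
        (PE.subgroup.2 hxp) (PE.subgroup.2 hyp)
      exact ⟨k, fun _ => hk⟩
  choose k hk using key
  refine ⟨∑ θ : IrrCharacter N, k θ, ?_⟩
  apply c.faith
  have h1 := apply_eq_of_constituents (G := N)
    (Clifford.isCharacter_restrict N (isIrr_isCharacter c.irr))
    (g := ((⟨x, hx⟩ : N) * ⟨y, hy⟩) ^ p ^ (∑ θ : IrrCharacter N, k θ)) (by
      intro θ hθ h2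
      have h3 := hk ⟨θ, hθ⟩ h2
      obtain ⟨d, hd⟩ : ∃ d, ∑ τ : IrrCharacter N, k τ = k ⟨θ, hθ⟩ + d :=
        Nat.exists_eq_add_of_le (Finset.single_le_sum (f := k) (fun _ _ => Nat.zero_le _)
          (Finset.mem_univ (⟨θ, hθ⟩ : IrrCharacter N)))
      rw [hd, pow_add, pow_mul]
      exact ker_pow (isIrr_isCharacter hθ) h3 _)
  exact h1

/-- No proper normal subgroup contains all `p`-elements. -/
theorem not_all (c : Ctx p G χ) (L : Subgroup G) (hL : L.Normal) (hLt : L ≠ ⊤)
    (h : ∀ x : G, PE p x → x ∈ L) : False :=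
  c.ncl fun _ _ hx hy => c.closed L hLt (h _ hx) (h _ hy) hx hy

/-- Constituents of restrictions to normal subgroups are invariant. -/
theorem inv (c : Ctx p G χ) [Fintype G] (N : Subgroup G) [hN : N.Normal] [Fintype N] {θ : N → ℂ}
    (hθ : IsIrrCharacter N θ) (h : classInner (fun n : N => χ n) θ ≠ 0) (g : G) (n : N) :
    θ ⟨g * n * g⁻¹, hN.conj_mem (n : G) n.2 g⟩ = θ n := by
  classical
  set T := H686.CharKit.inertia N ⟨θ, hθ⟩ with hT
  have hTmem : ∀ g : G, g ∈ T ↔ ∀ n : N, θ ⟨g * n * g⁻¹, hN.conj_mem (n : G) n.2 g⟩ = θ n := by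
    intro g
    rw [hT, H686.CharKit.mem_inertia]
    constructor
    · intro h1 n
      exact h1 n _ rfl
    · intro h1 n n' hn
      show θ n' = θ n
      rw [← h1 n]
      congr 1
      exact Subtype.ext hn
  have hNT : N ≤ T := by
    intro m hm
    rw [hTmem]
    intro n
    have := isIrr_isClassFunction hθ n ⟨m, hm⟩
    exact this
  have := Fintype.ofFinite T
  obtain ⟨ψ, hψ, hψχ, -⟩ := S0854.result N θ hθ T hTmem hNT χ c.irr h
  have h1 := CharactersDeep.NormalInd.indFun_one T ψ
  rw [hψχ, apply_one c.irr, apply_one hψ] at h1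
  have h2 : charDegree χ = T.index * charDegree ψ := by exact_mod_cast h1
  have h3 : T = ⊤ := by
    by_contra hne
    have hs := c.solv
    obtain ⟨L, hL, hLt, hLx⟩ := exists_normal_of_index hne c.prime
      (fun hW => c.noW (hW.mono (by rw [h2]; exact dvd_mul_right _ _)))
    exact c.not_all L hL hLt hLx
  exact (hTmem g).1 (by rw [h3]; exact mem_top g) n

theorem restrict_eq (c : Ctx p G χ) [Fintype G] (N : Subgroup G) [hN : N.Normal] [Fintype N]
    {θ : N → ℂ} (hθ : IsIrrCharacter N θ) (h : classInner (fun n : N => χ n) θ ≠ 0) :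
    (fun n : N => χ n) = classInner (fun n : N => χ n) θ • θ :=
  CharDeep.CliffordCorr.restrict_eq_smul_of_invariant N c.irr hθ (fun g => by
    funext n
    exact c.inv N hθ h g n) h

/-- Constituents of restrictions to normal subgroups are faithful. -/
theorem faithful (c : Ctx p G χ) [Fintype G] (N : Subgroup G) [hN : N.Normal] [Fintype N]
    {θ : N → ℂ} (hθ : IsIrrCharacter N θ) (h : classInner (fun n : N => χ n) θ ≠ 0) {n : N}
    (hn : θ n = θ 1) : n = 1 := by
  have h1 := c.restrict_eq N hθ h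
  have h2 := congrFun h1 n
  have h3 := congrFun h1 1
  simp only [Pi.smul_apply] at h2 h3
  rw [hn, ← h3] at h2
  exact Subtype.ext (c.faith _ h2)

/-- There is a constituent. -/
theorem exists_const (c : Ctx p G χ) [Fintype G] (N : Subgroup G) [N.Normal] [Fintype N] :
    ∃ θ : N → ℂ, IsIrrCharacter N θ ∧ classInner (fun n : N => χ n) θ ≠ 0 :=
  exists_constituent (Clifford.isCharacter_restrict N (isIrr_isCharacter c.irr))
    (isIrr_apply_one_ne_zero c.irr)

theorem central_of_linear (c : Ctx p G χ) [Fintype G] (N : Subgroup G) [hN : N.Normal] [Fintype N]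
    {θ : N → ℂ} (hθ : IsIrrCharacter N θ) (h : classInner (fun n : N => χ n) θ ≠ 0)
    (h1 : θ 1 = 1) : N ≤ center G := by
  obtain ⟨f, hf⟩ := Linear.exists_hom_of_isIrrCharacter hθ h1
  intro n hn
  rw [mem_center_iff]
  intro g
  have h2 := c.inv N hθ h g ⟨n, hn⟩
  have h3 : (⟨g * n * g⁻¹, hN.conj_mem n hn g⟩ : N) * (⟨n, hn⟩ : N)⁻¹ = 1 := by
    apply c.faithful N hθ h
    rw [hf] at h2 ⊢
    have h4 : f ⟨g * n * g⁻¹, hN.conj_mem n hn g⟩ = f ⟨n, hn⟩ := by
      ext
      exact h2
    show ((f _ : ℂˣ) : ℂ) = ((f 1 : ℂˣ) : ℂ)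
    rw [map_mul, map_inv, h4, mul_inv_cancel, map_one]
  have h4 : g * n * g⁻¹ = n := by
    have h5 := congrArg Subtype.val (mul_inv_eq_one.1 h3)
    exact h5
  exact mul_inv_eq_iff_eq_mul.1 h4

/-- Abelian normal subgroups are central. -/
theorem central_of_comm (c : Ctx p G χ) (N : Subgroup G) [hN : N.Normal]
    (hab : ∀ x ∈ N, ∀ y ∈ N, x * y = y * x) : N ≤ center G := by
  classical
  have := Fintype.ofFinite G
  obtain ⟨θ, hθ, h⟩ := c.exists_const N
  exact c.central_of_linear N hθ h (CCBasic.irr_apply_one_of_comm (A := N)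
    (fun x y => Subtype.ext (hab x x.2 y y.2)) hθ)

/-- Normal `p`-subgroups are central. -/
theorem central_of_isPGroup (c : Ctx p G χ) (N : Subgroup G) [hN : N.Normal]
    (hp : IsPGroup p N) : N ≤ center G := by
  classical
  have := Fintype.ofFinite G
  have := Fact.mk c.prime
  obtain ⟨θ, hθ, h⟩ := c.exists_const N
  refine c.central_of_linear N hθ h ?_
  have h1 := H597.Degrees.charDegree_dvd_card hθ
  obtain ⟨a, ha⟩ := IsPGroup.iff_card.1 hp
  rw [ha, Nat.dvd_prime_pow c.prime] at h1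
  obtain ⟨j, -, hj⟩ := h1
  have h2 := c.constituent_noW N hθ h
  have h3 : j = 0 := by
    by_contra hj0
    apply h2
    rw [hj]
    exact W.of_dvd c.prime (dvd_pow_self p hj0)
  rw [apply_one hθ, hj, h3, pow_zero, Nat.cast_one]

theorem not_dvd (c : Ctx p G χ) : ¬ p ∣ charDegree χ := fun h => c.noW (W.of_dvd c.prime h)

/-- There is a normal `p`-complement. -/
theorem exists_complement (c : Ctx p G χ) :
    ∃ (K : Subgroup G) (a : ℕ), K.Normal ∧ (Nat.card K).Coprime p ∧ K.index = p ^ a := by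
  classical
  have := Fact.mk c.prime
  have hs := c.solv
  have hnt : Nontrivial G := by
    by_contra h
    rw [not_nontrivial_iff_subsingleton] at h
    exact c.ncl fun x y _ _ => ⟨0, Subsingleton.elim _ _⟩
  obtain ⟨N, hN, hNp⟩ := Cfsg.Agent.H511.exists_normal_prime_index (G := G)
  have hNt : N ≠ ⊤ := by
    intro h
    rw [h, index_top] at hNp
    exact Nat.not_prime_one hNp
  -- the index of `N` is `p`
  have hNi : N.index = p := by
    by_contra hne
    apply c.not_all N hN hNt
    intro x hx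
    rw [← QuotientGroup.eq_one_iff]
    have h1 : PE p ((QuotientGroup.mk' N) x) := hx.map _
    apply h1.eq_one (mem_top _)
    rw [Subgroup.card_top, ← index_eq_card]
    exact (Nat.coprime_primes hNp c.prime).2 hne
  -- the `p`-elements of `N` are central
  let S : Subgroup G :=
    { carrier := {x | x ∈ N ∧ PE p x}
      mul_mem' := fun {a b} ha hb => ⟨N.mul_mem ha.1 hb.1, c.closed N hNt ha.1 hb.1 ha.2 hb.2⟩
      one_mem' := ⟨N.one_mem, ⟨0, one_pow _⟩⟩
      inv_mem' := fun {a} ha => ⟨N.inv_mem ha.1, PE.inv ha.2⟩ }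
  have hSn : S.Normal := ⟨fun x hx g => ⟨hN.conj_mem x hx.1 g, hx.2.conj g⟩⟩
  have hSp : IsPGroup p S := by
    rintro ⟨x, hx, k, hk⟩
    exact ⟨k, Subtype.ext hk⟩
  have hSc := c.central_of_isPGroup S hSp
  obtain ⟨P⟩ : Nonempty (Sylow p N) := inferInstance
  have hP : normalizer ((P : Subgroup N) : Set N) ≤ centralizer ((P : Subgroup N) : Set N) := by
    intro x _
    rw [mem_centralizer_iff]
    intro y hy
    have h1 : (y : G) ∈ S := ⟨y.2, PE.subgroup.1 (PE.of_isPGroup P.2 hy)⟩
    exact Subtype.ext ((mem_center_iff.1 (hSc h1) (x : G)).symm)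
  have hcomp := MonoidHom.ker_transferSylow_isComplement' P hP
  have hcop : (Nat.card (MonoidHom.transferSylow P hP).ker).Coprime p := by
    rw [Nat.coprime_comm, c.prime.coprime_iff_not_dvd]
    exact MonoidHom.not_dvd_card_ker_transferSylow P hP
  set K₀ := (MonoidHom.transferSylow P hP).ker with hK₀
  have hindex : K₀.index = Nat.card (P : Subgroup N) := hcomp.symm.index_eq_card
  obtain ⟨b, hb⟩ := IsPGroup.iff_card.1 P.2
  have hmem : ∀ x : N, x ∈ K₀ ↔ (orderOf (x : G)).Coprime p := by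
    intro x
    constructor
    · intro hx
      rw [Subgroup.orderOf_coe]
      exact Nat.Coprime.coprime_dvd_left (Subgroup.orderOf_dvd_natCard K₀ hx) hcop
    · intro hx
      have h1 : (QuotientGroup.mk' K₀ x) = 1 := by
        have h2 : orderOf (QuotientGroup.mk' K₀ x) ∣ orderOf x := orderOf_map_dvd _ x
        have h3 : orderOf (QuotientGroup.mk' K₀ x) ∣ Nat.card (N ⧸ K₀) := orderOf_dvd_natCard _
        rw [← index_eq_card, hindex, hb] at h3
        rw [Subgroup.orderOf_coe] at hx
        exact orderOf_eq_one_iff.1 (Nat.eq_one_of_dvd_coprimes (hx.pow_right b) h2 h3)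
      exact (QuotientGroup.eq_one_iff x).1 h1
  refine ⟨K₀.map N.subtype, b + 1, ?_, ?_, ?_⟩
  · constructor
    rintro _ ⟨x, hx, rfl⟩ g
    refine ⟨⟨g * x * g⁻¹, hN.conj_mem x x.2 g⟩, ?_, rfl⟩
    have h1 := (hmem x).1 hx
    apply (hmem _).2
    have h2 : orderOf (g * (x : G) * g⁻¹) = orderOf (x : G) := by
      rw [show g * (x : G) * g⁻¹ = (MulAut.conj g) (x : G) from rfl]
      exact orderOf_injective (MulAut.conj g).toMonoidHom (MulAut.conj g).injective x
    show (orderOf (g * (x : G) * g⁻¹)).Coprime p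
    rw [h2]
    exact h1
  · rw [Subgroup.card_map_of_injective N.subtype_injective]
    exact hcop
  · rw [Subgroup.index_map_subtype, hindex, hb, hNi, pow_succ]

/-- The constituents of `χ_T` of degree prime to `p`. -/
theorem exists_const_not_dvd (c : Ctx p G χ) [Fintype G] (T : Subgroup G) [Fintype T] :
    ∃ ψ : T → ℂ, IsIrrCharacter T ψ ∧ classInner (fun n : T => χ n) ψ ≠ 0 ∧
      ¬ p ∣ charDegree ψ := by
  classical
  by_contra hcon
  push Not at hcon
  have := finite_irr (G := T)
  have := Fintype.ofFinite (IrrCharacter T)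
  obtain ⟨m, hm, hm'⟩ := CharDeep.CliffordCorr.exists_nat_coeffs
    (Clifford.isCharacter_restrict T (isIrr_isCharacter c.irr))
  have h1 := degree_eq_sum hm
  have h2 : charDegree χ = ∑ η : IrrCharacter T, m η * charDegree (η : T → ℂ) := by
    have h3 : χ 1 = ((∑ η : IrrCharacter T, m η * charDegree (η : T → ℂ) : ℕ) : ℂ) := h1
    rw [apply_one c.irr] at h3
    exact_mod_cast h3
  apply c.not_dvd
  rw [h2]
  refine Finset.dvd_sum fun η _ => ?_
  by_cases h0 : m η = 0
  · rw [h0, zero_mul]; exact dvd_zero p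
  · exact dvd_mul_of_dvd_right (hcon η η.2 (by rw [hm' η]; exact_mod_cast h0)) _

/-- Proper normal subgroups below a normal `p`-complement commute with `p`-elements. -/
theorem commute (c : Ctx p G χ) {K M : Subgroup G} [hM : M.Normal]
    (hKp : (Nat.card K).Coprime p) (hMK : M < K) {x m : G} (hx : PE p x) (hm : m ∈ M) :
    x * m = m * x := by
  classical
  have := Fintype.ofFinite G
  have := Fact.mk c.prime
  have hs := c.solv
  set T : Subgroup G := zpowers x ⊔ M with hT
  have hxT : x ∈ T := (le_sup_left : zpowers x ≤ T) (mem_zpowers x)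
  have hMT : M ≤ T := le_sup_right
  -- the index of `M` in `T` is a power of `p`
  obtain ⟨a, ha⟩ : ∃ a, (M.subgroupOf T).index = p ^ a := by
    have h1 : (M.subgroupOf T).index = M.relIndex (zpowers x) := by
      show M.relIndex T = _
      rw [hT, relIndex_sup_right]
    rw [h1]
    have h2 : M.relIndex (zpowers x) ∣ Nat.card (zpowers x) := relIndex_dvd_card M (zpowers x)
    obtain ⟨a, ha⟩ := IsPGroup.iff_card.1 hx.isPGroup_zpowers
    rw [ha, Nat.dvd_prime_pow c.prime] at h2
    obtain ⟨j, -, hj⟩ := h2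
    exact ⟨j, hj⟩
  have hTt : T ≠ ⊤ := by
    intro h
    have h1 : M.relIndex K ∣ M.relIndex T := by
      rw [h, relIndex_top_right, ← relIndex_mul_index hMK.le]
      exact dvd_mul_right _ _
    have h2 : M.relIndex K ∣ Nat.card K := relIndex_dvd_card M K
    have h3 : M.relIndex T = p ^ a := ha
    rw [h3] at h1
    have h4 : M.relIndex K = 1 := Nat.eq_one_of_dvd_coprimes (hKp.pow_right a) h2 h1
    rw [relIndex_eq_one] at h4
    exact hMK.not_ge h4
  have hlt : Nat.card T < Nat.card G := by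
    apply lt_of_le_of_ne (Nat.card_le_card_of_injective _ T.subtype_injective)
    intro h
    exact hTt (Subgroup.eq_top_of_card_eq T h)
  obtain ⟨ψ, hψ, hψc, hψp⟩ := c.exists_const_not_dvd T
  -- the restriction of `ψ` to `M` is irreducible
  have hres : IsIrrCharacter (M.subgroupOf T) (fun n : M.subgroupOf T => ψ n) := by
    apply H597.Degrees.isIrr_restrict_of_coprime _ hψ
    rw [ha]
    exact Nat.Coprime.pow_left _ ((c.prime.coprime_iff_not_dvd).2 hψp)
  set φ : M → ℂ := fun m => ψ ⟨m, hMT m.2⟩ with hφ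
  have hφirr : IsIrrCharacter M φ := by
    have h1 := isIrr_comp (subgroupOfEquivOfLe hMT).symm.toMonoidHom
      (subgroupOfEquivOfLe hMT).symm.surjective hres
    exact h1
  have hφc : classInner (fun n : M => χ n) φ ≠ 0 := by
    have := finite_irr (G := T)
    have := Fintype.ofFinite (IrrCharacter T)
    obtain ⟨mm, hmm, hmm'⟩ := CharDeep.CliffordCorr.exists_nat_coeffs
      (Clifford.isCharacter_restrict T (isIrr_isCharacter c.irr))
    have h1 : (fun n : M => χ n) = ∑ η : IrrCharacter T, (mm η : ℂ) •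
        (fun n : M => (η : T → ℂ) ⟨n, hMT n.2⟩) := by
      funext n
      rw [Finset.sum_apply]
      exact apply_eq_sum hmm (⟨n, hMT n.2⟩ : T)
    rw [h1, classInner_sum_left]
    have h2 : ∀ η : IrrCharacter T, ∃ d : ℕ,
        classInner ((mm η : ℂ) • (fun n : M => (η : T → ℂ) ⟨n, hMT n.2⟩)) φ = d := by
      intro η
      obtain ⟨d, hd⟩ := classInner_isNat (isCharacter_comp (inclusion hMT) (isIrr_isCharacter η.2))
        (isIrr_isCharacter hφirr)
      refine ⟨mm η * d, ?_⟩
      rw [classInner_smul_left]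
      push_cast
      rw [← hd]
      rfl
    choose d hd using h2
    rw [Finset.sum_congr rfl fun η _ => hd η, ← Nat.cast_sum, Nat.cast_ne_zero]
    intro h3
    have h4 := (Finset.sum_eq_zero_iff.1 h3) ⟨ψ, hψ⟩ (Finset.mem_univ _)
    have h5 := hd ⟨ψ, hψ⟩
    rw [h4, classInner_smul_left] at h5
    have h6 : classInner (fun n : M => ((⟨ψ, hψ⟩ : IrrCharacter T) : T → ℂ) ⟨n, hMT n.2⟩) φ = 1 :=
      classInner_irr_self hφirr
    rw [h6, mul_one, Nat.cast_zero, ← hmm'] at h5
    exact hψc h5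
  have hψW : ¬ W p (charDegree ψ) := by
    have h1 : charDegree φ = charDegree ψ := by
      have h2 := apply_one hφirr
      have h3 : (charDegree ψ : ℂ) = charDegree φ := by
        rw [← apply_one hψ]
        exact h2
      exact_mod_cast h3.symm
    rw [← h1]
    exact c.constituent_noW M hφirr hφc
  -- use induction
  have hcM : x * m * x⁻¹ * m⁻¹ ∈ M := M.mul_mem (hM.conj_mem m hm x) (M.inv_mem hm)
  obtain ⟨k, hk⟩ := c.ih T hlt inferInstance ψ hψ hψW ⟨x, hxT⟩
    (⟨m, hMT hm⟩ * ⟨x, hxT⟩⁻¹ * ⟨m, hMT hm⟩⁻¹) (PE.subgroup.2 hx)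
    ((PE.inv (PE.subgroup.2 hx)).conj _)
  have h1 : ((⟨x, hxT⟩ : T) * (⟨m, hMT hm⟩ * ⟨x, hxT⟩⁻¹ * ⟨m, hMT hm⟩⁻¹)) ^ p ^ k
      = ⟨(x * m * x⁻¹ * m⁻¹) ^ p ^ k, hMT (M.pow_mem hcM _)⟩ := by
    apply Subtype.ext
    push_cast
    congr 1
    group
  rw [h1] at hk
  have h2 : (⟨(x * m * x⁻¹ * m⁻¹) ^ p ^ k, M.pow_mem hcM _⟩ : M) = 1 :=
    c.faithful M hφirr hφc hk
  have h3 : PE p (x * m * x⁻¹ * m⁻¹) := ⟨k, congrArg Subtype.val h2⟩
  have h4 := h3.eq_one (hMK.le hcM) hKp
  exact mul_inv_eq_iff_eq_mul.1 (mul_inv_eq_one.1 h4)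

/-- Schur: an element commuting with a subgroup to which the faithful character `θ` restricts
irreducibly is central. -/
theorem comm_of_irr_restrict {L : Type u} [Group L] [Finite L] {θ : L → ℂ}
    (hθ : IsIrrCharacter L θ) (hf : ∀ g, θ g = θ 1 → g = 1) {H : Type*} [Group H] [Finite H]
    (f : H →* L) (h : IsIrrCharacter H (θ ∘ f)) {z : L} (hz : ∀ x : H, z * f x = f x * z) (g : L) :
    z * g = g * z := by
  obtain ⟨n, ρ, hρ, rfl⟩ := hθ
  have h1 : Representation.IsIrreducible (ρ.comp f : Representation ℂ H (Fin n → ℂ)) :=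
    isIrreducible_of_isIrrCharacter _ h
  obtain ⟨s, hs⟩ := OddOrderCharacters.ClassSum.schur_scalar (ρ.comp f) h1 (ρ z) (by
    intro x
    show ρ z * ρ (f x) = ρ (f x) * ρ z
    rw [← map_mul, ← map_mul, hz x])
  have h2 : ρ (z * g) = ρ (g * z) := by
    rw [map_mul, map_mul, hs]
    ext v
    simp
  have h3 : z * g * (g * z)⁻¹ = 1 := by
    apply hf
    show LinearMap.trace ℂ _ (ρ (z * g * (g * z)⁻¹)) = LinearMap.trace ℂ _ (ρ 1)
    rw [map_mul, h2, ← map_mul, mul_inv_cancel]
  exact mul_inv_eq_one.1 h3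

/-- There is no minimal counterexample. -/
theorem false (c : Ctx p G χ) : False := by
  classical
  have := Fintype.ofFinite G
  have := Fact.mk c.prime
  have hs := c.solv
  obtain ⟨K, a, hKn, hKp, hKi⟩ := c.exists_complement
  obtain ⟨P⟩ : Nonempty (Sylow p G) := inferInstance
  have hPE : ∀ x ∈ P, PE p x := fun x hx => PE.of_isPGroup P.2 hx
  have hKb : K ≠ ⊥ := by
    rintro rfl
    rw [index_bot] at hKi
    exact c.ncl fun x y _ _ => ⟨a, by rw [← hKi]; exact pow_card_eq_one'⟩
  -- a maximal normal subgroup below `K`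
  obtain ⟨M, ⟨hMn, hMK⟩, hMmax⟩ : ∃ M : Subgroup G, (M.Normal ∧ M < K) ∧
      ∀ N : Subgroup G, N.Normal → N < K → M ≤ N → N = M := by
    have hfin : {M : Subgroup G | M.Normal ∧ M < K}.Finite := Set.toFinite _
    obtain ⟨M, hM⟩ := hfin.exists_maximal ⟨⊥, inferInstance, bot_lt_iff_ne_bot.2 hKb⟩
    exact ⟨M, hM.1, fun N hN hNK hMN => le_antisymm (hM.2 ⟨hN, hNK⟩ hMN) hMN⟩
  have hchief : ∀ A : Subgroup G, A.Normal → M ≤ A → A ≤ K → A = M ∨ A = K := by
    intro A hA hMA hAK
    by_cases h : A = K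
    · exact Or.inr h
    · exact Or.inl (hMmax A hA (lt_of_le_of_ne hAK h) hMA)
  have hab := commutator_le_of_chief K M hMK hchief
  have hcomm : ∀ x m : G, PE p x → m ∈ M → x * m = m * x := fun x m hx hm =>
    c.commute hKp hMK hx hm
  -- `P` acts nontrivially on `K / M`
  have hnot : ¬ ∀ x ∈ P, ∀ k ∈ K, x * k * x⁻¹ * k⁻¹ ∈ M := by
    intro h
    refine c.ncl (Cl.of_centralize K hKi P fun x hx k hk => ?_)
    exact comm_eq_one (hPE x hx) hKp (hMK.le (h x hx k hk)) (hcomm x _ (hPE x hx) (h x hx k hk))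
  obtain ⟨θ, hθ, hθc⟩ := c.exists_const K
  have hKr := c.restrict_eq K hθ hθc
  set s : ℂ := classInner (fun n : K => χ n) θ with hsdef
  have hMr : (fun n : M => χ n) = s • (fun n : M => θ ⟨n, hMK.le n.2⟩) := by
    funext n
    exact congrFun hKr ⟨n, hMK.le n.2⟩
  rcases S0857.result K M hMK hchief hab θ hθ (c.inv K hθ hθc) with
    hirr | ⟨φ, e, hφ, h1, h2⟩ | ⟨F, hF, h1, h2⟩
  · -- the restriction to `M` is irreducible
    have hZc : K ⊓ centralizer (K : Set G) ≤ center G := by
      apply c.central_of_comm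
      intro x hx y hy
      exact (mem_centralizer_iff.1 (mem_inf.1 hx).2 y (mem_inf.1 hy).1).symm
    refine c.ncl (Cl.of_centralize K hKi P fun x hx k hk => ?_)
    have hcK : x * k * x⁻¹ * k⁻¹ ∈ K := K.mul_mem (hKn.conj_mem k hk x) (K.inv_mem hk)
    -- the commutator centralizes `M`
    have hcM : ∀ m ∈ M, (x * k * x⁻¹ * k⁻¹) * m = m * (x * k * x⁻¹ * k⁻¹) := by
      intro m hm
      have e1 : k⁻¹ * m * k ∈ M := by
        have := hMn.conj_mem m hm k⁻¹
        rwa [inv_inv] at this
      have e2 : x⁻¹ * (k⁻¹ * m * k) = (k⁻¹ * m * k) * x⁻¹ := hcomm _ _ (PE.inv (hPE x hx)) e1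
      have e3 : x * m = m * x := hcomm _ _ (hPE x hx) hm
      calc (x * k * x⁻¹ * k⁻¹) * m = x * k * (x⁻¹ * (k⁻¹ * m * k)) * k⁻¹ := by group
        _ = x * k * ((k⁻¹ * m * k) * x⁻¹) * k⁻¹ := by rw [e2]
        _ = (x * m) * (k * x⁻¹ * k⁻¹) := by group
        _ = (m * x) * (k * x⁻¹ * k⁻¹) := by rw [e3]
        _ = m * (x * k * x⁻¹ * k⁻¹) := by group
    have hcZ : x * k * x⁻¹ * k⁻¹ ∈ centralizer (K : Set G) := by
      rw [mem_centralizer_iff]
      intro k' hk'
      have h3 := comm_of_irr_restrict hθ (fun g hg => c.faithful K hθ hθc hg)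
        (inclusion hMK.le) hirr (z := ⟨x * k * x⁻¹ * k⁻¹, hcK⟩)
        (fun m => Subtype.ext (hcM m m.2)) ⟨k', hk'⟩
      exact (congrArg Subtype.val h3).symm
    have hcc := hZc (mem_inf.2 ⟨hcK, hcZ⟩)
    exact comm_eq_one (hPE x hx) hKp hcK (mem_center_iff.1 hcc x)
  · -- fully ramified
    have hres : (fun x : M => θ ⟨x, hMK.le x.2⟩) = (e : ℂ) • φ := h1
    have hedvd : e ∣ charDegree θ := by
      have h3 : θ 1 = (e : ℂ) * φ 1 := congrFun hres 1
      rw [apply_one hθ, apply_one hφ] at h3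
      have h4 : charDegree θ = e * charDegree φ := by exact_mod_cast h3
      rw [h4]
      exact dvd_mul_right _ _
    apply c.constituent_noW K hθ hθc
    refine W.mono ?_ hedvd
    -- `|K : M|` is a prime power
    obtain ⟨r, j, hr, hj, hrj⟩ : ∃ r j : ℕ, r.Prime ∧ j ≠ 0 ∧ M.relIndex K = r ^ j := by
      rcases OddOrderCharacters.NilpotentIndex.exists_between_or_prime_pow hab hMK with
        ⟨N, hN, hMN, hNK⟩ | h
      · exfalso
        rcases hchief N hN hMN.le hNK.le with h | h
        · exact hMN.ne' h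
        · exact hNK.ne h
      · exact h
    have he : IsPrimePow e := by
      have h3 : e ∣ r ^ j := by rw [← hrj, ← h2]; exact dvd_pow_self e two_ne_zero
      obtain ⟨i, hi, rfl⟩ := (Nat.dvd_prime_pow hr).1 h3
      apply hr.isPrimePow.pow
      rintro rfl
      rw [hrj, pow_zero, one_pow] at h2
      exact (Nat.one_lt_pow hj hr.one_lt).ne h2
    refine ⟨e, he, dvd_rfl, ?_⟩
    -- fixed points of `P` on `K / M`
    set π := QuotientGroup.mk' M with hπ
    have hπs : Function.Surjective π := QuotientGroup.mk'_surjective M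
    have hπ1 : ∀ x : G, π x = 1 ↔ x ∈ M := fun x => QuotientGroup.eq_one_iff x
    set V := K.map π with hV
    have hVn : V.Normal := hKn.map π hπs
    set R := (P : Subgroup G).map π with hR
    have hRp : IsPGroup p R := P.2.map π
    have hVcard : Nat.card V = e ^ 2 := by
      have h3 := relIndex_ker (K := K) π
      rw [hπ, QuotientGroup.ker_mk'] at h3
      rw [h2, h3]
    have hmod := H404.Nse.card_modEq_card_inf_centralizer (p := p) R V hRp
      (fun y _ g hg => hVn.conj_mem g hg y)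
    set F := V ⊓ centralizer (R : Set (G ⧸ M)) with hF
    have hVab : ∀ u ∈ V, ∀ v ∈ V, u * v = v * u := by
      rintro _ ⟨u, hu, rfl⟩ _ ⟨v, hv, rfl⟩
      have h3 : u * v * u⁻¹ * v⁻¹ ∈ M := by
        have h4 := hab (commutator_mem_commutator hu hv)
        rwa [commutatorElement_def] at h4
      rw [← hπ1] at h3
      simp only [map_mul, map_inv] at h3
      exact mul_inv_eq_iff_eq_mul.1 (mul_inv_eq_one.1 h3)
    -- `F` is central
    have hFc : centralizer (F : Set (G ⧸ M)) = ⊤ := by
      have h3 : (centralizer (F : Set (G ⧸ M))).index = 1 := by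
        have h4 : K ≤ (centralizer (F : Set (G ⧸ M))).comap π := by
          intro k hk
          rw [mem_comap, mem_centralizer_iff]
          intro u hu
          exact hVab _ (mem_inf.1 hu).1 _ ⟨k, hk, rfl⟩
        have h5 : (P : Subgroup G) ≤ (centralizer (F : Set (G ⧸ M))).comap π := by
          intro k hk
          rw [mem_comap, mem_centralizer_iff]
          intro u hu
          exact (mem_centralizer_iff.1 (mem_inf.1 hu).2 _ ⟨k, hk, rfl⟩).symm
        have h6 := index_dvd_of_le h4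
        have h7 := index_dvd_of_le h5
        rw [index_comap_of_surjective _ hπs] at h6 h7
        rw [hKi] at h6
        exact Nat.eq_one_of_dvd_coprimes
          (((c.prime.coprime_iff_not_dvd).2 P.not_dvd_index).symm.pow_right a) h7 h6
      exact index_eq_one.1 h3
    have hFn : F.Normal := by
      constructor
      intro f hf g
      have h3 : g ∈ centralizer (F : Set (G ⧸ M)) := by rw [hFc]; exact mem_top g
      have h4 := mem_centralizer_iff.1 h3 f hf
      rw [← h4, mul_inv_cancel_right]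
      exact hf
    have hFb : F = ⊥ := by
      have h3 : M ≤ F.comap π := by
        intro m hm
        rw [mem_comap, (hπ1 m).2 hm]
        exact F.one_mem
      have h4 : F.comap π ≤ K := by
        intro x hx
        obtain ⟨k, hk, hk'⟩ := (mem_inf.1 (mem_comap.1 hx)).1
        have h5 : k⁻¹ * x ∈ M := by
          rw [← hπ1, map_mul, map_inv, hk', inv_mul_cancel]
        have h6 : x = k * (k⁻¹ * x) := by group
        rw [h6]
        exact K.mul_mem hk (hMK.le h5)
      rcases hchief _ (hFn.comap π) h3 h4 with h5 | h5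
      · rw [← map_comap_eq_self_of_surjective hπs F, h5, hπ, QuotientGroup.map_mk'_self]
      · exfalso
        apply hnot
        intro x hx k hk
        have h6 : π k ∈ F := by
          rw [← mem_comap, h5]; exact hk
        have h7 := mem_centralizer_iff.1 (mem_inf.1 h6).2 (π x) ⟨x, hx, rfl⟩
        rw [← hπ1]
        simp only [map_mul, map_inv]
        rw [h7]
        group
    rw [hFb, card_bot, hVcard] at hmod
    have h3 : (p : ℤ) ∣ (e : ℤ) ^ 2 - 1 := by
      have h4 := (Int.natCast_modEq_iff (n := p)).2 hmod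
      push_cast at h4
      exact Int.modEq_iff_dvd.1 h4.symm
    have h4 : (e : ℤ) ^ 2 - 1 = ((e : ℤ) + 1) * ((e : ℤ) - 1) := by ring
    rw [h4] at h3
    rcases (Nat.prime_iff_prime_int.1 c.prime).dvd_or_dvd h3 with h5 | h5
    · left
      apply Int.ModEq.symm
      rw [Int.modEq_iff_dvd]
      have h6 : (e : ℤ) - -1 = e + 1 := by ring
      rw [h6]; exact h5
    · right; right
      apply Int.ModEq.symm
      rw [Int.modEq_iff_dvd]
      exact h5
  · -- a sum of distinct characters
    have hres : (fun x : M => θ ⟨x, hMK.le x.2⟩) = ∑ φ ∈ F, φ := h2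
    have hs0 : s ≠ 0 := hθc
    have hin : ∀ φ ∈ F, classInner (fun n : M => χ n) φ ≠ 0 := by
      intro φ hφ
      rw [hMr, classInner_smul_left, hres, classInner_sum_left, Finset.sum_eq_single φ]
      · rw [classInner_irr_self (hF φ hφ), mul_one]
        exact hs0
      · intro τ hτ hne
        exact classInner_irr_ne (hF τ hτ) (hF φ hφ) hne
      · intro h4; exact absurd hφ h4
    have hcard : 1 < F.card := by
      rw [h1]
      have h3 : M.relIndex K ≠ 1 := by
        rw [Ne, relIndex_eq_one]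
        exact hMK.not_ge
      have h4 : M.relIndex K ≠ 0 := by
        intro h5
        have h6 := card_mul_relIndex hMK.le
        rw [h5, mul_zero] at h6
        exact (Nat.card_pos (α := K)).ne h6
      omega
    obtain ⟨φ, hφ, τ, hτ, hne⟩ := Finset.one_lt_card.1 hcard
    have h3 := c.restrict_eq M (hF φ hφ) (hin φ hφ)
    apply hin τ hτ
    rw [h3, classInner_smul_left, classInner_irr_ne (hF φ hφ) (hF τ hτ) hne, mul_zero]

end Ctx

/-- Winter's theorem, for not necessarily faithful characters. -/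
theorem main {p : ℕ} (hp : p.Prime) (m : ℕ) : IH.{u} p m := by
  induction m using Nat.strong_induction_on with
  | _ m ih =>
    intro H _ _ hlt hs χ hχ hW x y hx hy
    by_cases hf : ∀ g, χ g = χ 1 → g = 1
    · by_cases hcl : Cl p H
      · obtain ⟨k, hk⟩ := hcl x y hx hy
        exact ⟨k, by rw [hk]⟩
      · exact absurd (Ctx.false (p := p) (G := H) (χ := χ)
          ⟨hp, hs, hχ, hf, hW, ih _ hlt, hcl⟩) id
    · push Not at hf
      obtain ⟨g, hg, hg1⟩ := hf
      set N := H686.CharKit.chKer ⟨χ, hχ⟩ with hN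
      obtain ⟨ψ, hψ⟩ := H686.CharKit.exists_infl N ⟨χ, hχ⟩ le_rfl
      have hval : ∀ h : H, χ h = (ψ : H ⧸ N → ℂ) (QuotientGroup.mk' N h) := by
        intro h
        have h1 := H686.CharKit.infl_apply N ψ h
        rw [hψ] at h1
        exact h1
      have hNne : N ≠ ⊥ := by
        intro h
        have h1 : g ∈ N := hg
        rw [h, mem_bot] at h1
        exact hg1 h1
      have hcard : Nat.card (H ⧸ N) < Nat.card H := by
        rw [← N.index_mul_card, ← index_eq_card]
        have h1 : 1 < Nat.card N := by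
          rw [Subgroup.one_lt_card_iff_ne_bot]
          exact hNne
        have h2 : 0 < N.index := Nat.pos_of_ne_zero FiniteIndex.index_ne_zero
        nlinarith
      have hdeg : charDegree (ψ : H ⧸ N → ℂ) = charDegree χ := by
        have h1 := hval 1
        rw [map_one, apply_one hχ, apply_one ψ.2] at h1
        exact_mod_cast h1.symm
      obtain ⟨k, hk⟩ := ih (Nat.card H) hlt (H ⧸ N) hcard inferInstance ψ ψ.2
        (by rw [hdeg]; exact hW) _ _ (hx.map (QuotientGroup.mk' N)) (hy.map (QuotientGroup.mk' N))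
      refine ⟨k, ?_⟩
      rw [hval, hval 1, map_pow, map_mul, map_one]
      exact hk

end Cfsg.Agent.H598.Winter
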